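import Mathlib
import Cfsg.Prelude.Def_PLocal
import Cfsg.Agent.ZJ.Thompson

/-!
The functor `W(S)` (stable normal closure) and the normal `p`-complement theorem with `W(S)` (S0628).
-/

set_option autoImplicit false

namespace Cfsg.Agent.ZJ

open Cfsg Subgroup
open scoped commutatorElement Pointwise

universe u

theorem omegaOne_map {X Y : Type*} [Group X] [Group Y] (p : ℕ) (f : X →* Y) (hf : Function.Injective f)
    (H : Subgroup X) : (omegaOne p H).map f = omegaOne p (H.map f) := by
  rw [omegaOne, omegaOne, MonoidHom.map_closure]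
  congr 1
  ext y
  constructor
  · rintro ⟨x, ⟨hx1, hx2⟩, rfl⟩
    exact ⟨⟨x, hx1, rfl⟩, by rw [← map_pow, hx2, map_one]⟩
  · rintro ⟨⟨x, hx1, rfl⟩, hx2⟩
    refine ⟨x, ⟨hx1, ?_⟩, rfl⟩
    apply hf
    rw [map_pow, hx2, map_one]

theorem omegaOne_normal {X : Type*} [Group X] (p : ℕ) (H : Subgroup X) [hH : H.Normal] :
    (omegaOne p H).Normal := by
  have h1 : ∀ g : X, (omegaOne p H).map (MulAut.conj g).toMonoidHom = omegaOne p H := by
    intro g
    rw [omegaOne_map p _ (MulAut.conj g).injective]
    congr 1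
    exact map_conj_eq_of_mem_normalizer (by rw [normalizer_eq_top_iff.mpr hH]; trivial)
  refine ⟨fun x hx g => ?_⟩
  have h2 : g * x * g⁻¹ ∈ (omegaOne p H).map (MulAut.conj g).toMonoidHom := ⟨x, hx, rfl⟩
  rwa [h1] at h2

theorem omegaOne_le {X : Type*} [Group X] (p : ℕ) (H : Subgroup X) : omegaOne p H ≤ H := by
  rw [omegaOne, closure_le]; exact fun x hx => hx.1

theorem map_inf_centralizer_of_injective {X Y : Type*} [Group X] [Group Y] (f : X →* Y)
    (hf : Function.Injective f) (J : Subgroup X) :
    (J ⊓ centralizer (J : Set X)).map f = J.map f ⊓ centralizer ((J.map f : Subgroup Y) : Set Y) := by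
  ext y
  constructor
  · rintro ⟨x, ⟨hx1, hx2⟩, rfl⟩
    refine ⟨⟨x, hx1, rfl⟩, ?_⟩
    change f x ∈ centralizer _
    rw [mem_centralizer_iff]
    rintro _ ⟨j, hj, rfl⟩
    rw [← map_mul, ← map_mul, mem_centralizer_iff.mp hx2 j hj]
  · rintro ⟨⟨x, hx1, rfl⟩, hx2⟩
    refine ⟨x, ⟨hx1, ?_⟩, rfl⟩
    change f x ∈ centralizer _ at hx2
    change x ∈ centralizer _
    rw [mem_centralizer_iff] at hx2 ⊢
    intro j hj
    apply hf
    rw [map_mul, map_mul]
    exact hx2 _ ⟨j, hj, rfl⟩

theorem omegaCenterThompson_map {p : ℕ} {X H : Type u} [Group X] [Group H] (τ : X →* H)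
    (hτ : Function.Injective τ) :
    (omegaCenterThompson p X).map τ =
      omegaOne p ((thompsonSubgroup p X).map τ ⊓ centralizer (((thompsonSubgroup p X).map τ : Subgroup H) : Set H)) := by
  rw [omegaCenterThompson, omegaOne_map p τ hτ, map_inf_centralizer_of_injective τ hτ]

theorem omegaCenterThompson_map_normal {p : ℕ} {X H : Type u} [Group X] [Group H] (τ : X →* H)
    (hτ : Function.Injective τ) (hJ : ((thompsonSubgroup p X).map τ).Normal) :
    ((omegaCenterThompson p X).map τ).Normal := by
  rw [omegaCenterThompson_map τ hτ]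
  have := hJ
  exact omegaOne_normal p _

theorem omegaOne_center_le_omegaCenterThompson (p : ℕ) (X : Type u) [Group X] [Finite X] :
    omegaOne p (center X) ≤ omegaCenterThompson p X := by
  rw [omegaCenterThompson, omegaOne, closure_le]
  rintro z ⟨hz, hzp⟩
  exact subset_closure ⟨center_elem_mem_zje hz hzp, hzp⟩

theorem stableNormalClosure_le_omega (p : ℕ) (X : Type u) [Group X] [Finite X] :
    stableNormalClosure p X ≤ omegaCenterThompson p X := by
  apply sInf_le
  refine ⟨omegaOne_center_le_omegaCenterThompson p X, ?_⟩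
  intro H _ τ hτ
  exact omegaCenterThompson_map_normal τ hτ.1 hτ.2.2.2.2.1

theorem omegaOne_center_le_stable (p : ℕ) (X : Type u) [Group X] :
    omegaOne p (center X) ≤ stableNormalClosure p X :=
  le_sInf (fun _ hW => hW.1)

/-- The stable normal closure is normal under every stable embedding. -/
theorem stableNormalClosure_map_normal {p : ℕ} {X H : Type u} [Group X] [Group H] (τ : X →* H)
    (hτ : IsStableEmbedding p τ) : ((stableNormalClosure p X).map τ).Normal := by
  refine ⟨?_⟩
  rintro _ ⟨x, hx, rfl⟩ g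
  -- h * τ x * h⁻¹ is in every (W.map τ)
  have hmem : ∀ W : Subgroup X, (omegaOne p (center X) ≤ W ∧
      ∀ (H : Type u) [Group H] (τ : X →* H), IsStableEmbedding p τ → (W.map τ).Normal) →
      g * τ x * g⁻¹ ∈ W.map τ := by
    intro W hW
    have h1 := hW.2 H τ hτ
    have hxW : x ∈ W := by
      have : stableNormalClosure p X ≤ W := sInf_le hW
      exact this hx
    exact h1.conj_mem _ ⟨x, hxW, rfl⟩ g
  -- ⊤ is in the family when τ(X) is ... use one member to get the preimage
  by_cases hne : ∃ W : Subgroup X, (omegaOne p (center X) ≤ W ∧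
      ∀ (H : Type u) [Group H] (τ : X →* H), IsStableEmbedding p τ → (W.map τ).Normal)
  · obtain ⟨W₀, hW₀⟩ := hne
    obtain ⟨y, hy, hyx⟩ := hmem W₀ hW₀
    refine ⟨y, ?_, hyx⟩
    change y ∈ stableNormalClosure p X
    rw [stableNormalClosure, Subgroup.mem_sInf]
    intro W hW
    obtain ⟨y', hy', hyx'⟩ := hmem W hW
    have : y' = y := hτ.1 (hyx'.trans hyx.symm)
    rw [← this]; exact hy'
  · exfalso
    -- the omega center Thompson subgroup is in the family
    have hfinH := hτ.2.1
    have hfinX : Finite X := Finite.of_injective τ hτ.1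
    apply hne
    refine ⟨omegaCenterThompson p X, omegaOne_center_le_omegaCenterThompson p X, ?_⟩
    intro H _ τ hτ
    exact omegaCenterThompson_map_normal τ hτ.1 hτ.2.2.2.2.1

theorem isStableEmbedding_comp {p : ℕ} {X Y H : Type u} [Group X] [Group Y] [Group H] (e : X ≃* Y)
    {τ : X →* H} (hτ : IsStableEmbedding p τ) : IsStableEmbedding p (τ.comp e.symm.toMonoidHom) := by
  obtain ⟨h1, h2, ⟨P, hP⟩, h4, h5, h6⟩ := hτ
  have hJ : (thompsonSubgroup p Y).map (τ.comp e.symm.toMonoidHom) = (thompsonSubgroup p X).map τ := by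
    rw [← Subgroup.map_map]
    congr 1
    exact isNat_thompson p Y X e.symm
  have hinj : Function.Injective (τ.comp e.symm.toMonoidHom) := h1.comp e.symm.injective
  have hO : (omegaCenterThompson p Y).map (τ.comp e.symm.toMonoidHom) = (omegaCenterThompson p X).map τ := by
    rw [omegaCenterThompson_map _ hinj, omegaCenterThompson_map _ h1, hJ]
  refine ⟨hinj, h2, ⟨P, ?_⟩, h4, ?_, ?_⟩
  · rw [hP]
    ext y
    constructor
    · rintro ⟨x, rfl⟩
      exact ⟨e x, by simp⟩
    · rintro ⟨x, rfl⟩
      exact ⟨e.symm x, rfl⟩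
  · rw [hJ]; exact h5
  · intro V hV hVle
    rw [hO] at hVle
    exact h6 V hVle

theorem omegaOne_center_map (p : ℕ) {X Y : Type u} [Group X] [Group Y] (e : X ≃* Y) :
    (omegaOne p (center X)).map e.toMonoidHom = omegaOne p (center Y) := by
  rw [omegaOne_map p _ e.injective]
  congr 1
  exact isNat_center X Y e

theorem isNat_stable (p : ℕ) : IsNat.{u} (fun X _ => stableNormalClosure p X) := by
  apply isNat_of_le
  intro X Y _ _ e
  apply le_sInf
  rintro W ⟨hW1, hW2⟩
  rw [Subgroup.map_le_iff_le_comap]
  apply sInf_le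
  refine ⟨?_, ?_⟩
  · rw [← Subgroup.map_le_iff_le_comap, omegaOne_center_map]; exact hW1
  · intro H _ τ hτ
    have h1 := hW2 H _ (isStableEmbedding_comp e hτ)
    have h2 : (W.comap e.toMonoidHom).map τ = W.map (τ.comp e.symm.toMonoidHom) := by
      ext y
      constructor
      · rintro ⟨x, hx, rfl⟩
        exact ⟨e x, hx, by simp⟩
      · rintro ⟨w, hw, rfl⟩
        refine ⟨e.symm w, ?_, rfl⟩
        change e (e.symm w) ∈ W
        rw [e.apply_symm_apply]; exact hw
    rw [h2]; exact h1

theorem stableNormalClosure_ne_bot {p : ℕ} [Fact p.Prime] (X : Type u) [Group X] [Finite X]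
    (hX : IsPGroup p X) (hn : Nontrivial X) : stableNormalClosure p X ≠ ⊥ := by
  obtain ⟨z, hz, hz1, hzp⟩ := exists_center_elem hX hn
  intro h
  have := omegaOne_center_le_stable p X (subset_closure ⟨hz, hzp⟩)
  rw [h, mem_bot] at this
  exact hz1 this

/-- The inclusion of a Sylow subgroup is a stable embedding, under suitable hypotheses. -/
theorem isStableEmbedding_subtype {G : Type u} [Group G] [Finite G] {p : ℕ} [Fact p.Prime] (P : Sylow p G)
    (hc : centralizer (pCore p G : Set G) ≤ pCore p G)
    (hJ : (thompsonSubgroupOf p (P : Subgroup G)).Normal)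
    (hst : ∀ (V : Subgroup G) [V.Normal], V ≤ (omegaCenterThompson p ↥(P : Subgroup G)).map (P : Subgroup G).subtype →
      IsPStableOn p V) :
    IsStableEmbedding p (P : Subgroup G).subtype :=
  ⟨(P : Subgroup G).subtype_injective, inferInstance, ⟨P, by simp⟩, hc, hJ, hst⟩

/-- normal `p`-complement theorem with `W(S)` -/
theorem hasNPC_of_stable {p : ℕ} [hpf : Fact p.Prime] (hp : p ≠ 2) (G : Type u) [Group G] [Finite G]
    (P : Sylow p G)
    (hN : HasNormalPComplement p (normalizer (((stableNormalClosure p ↥(P : Subgroup G)).map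
      (P : Subgroup G).subtype : Subgroup G) : Set G))) :
    HasNormalPComplement p G := by
  refine hasNPC_of_functors' (ι := Unit) (fun _ X _ => stableNormalClosure p X) (fun _ => isNat_stable p)
    (fun _ X _ _ hX hn => stableNormalClosure_ne_bot X hX hn) ?_ G P (fun _ => hN)
  intro G _ _ P M hsp hrel
  have hW : normalizer (((stableNormalClosure p ↥(P : Subgroup G)).map
      (P : Subgroup G).subtype : Subgroup G) : Set G) = P := hrel ()
  have hstab := fun (V : Subgroup G) (hV : V.Normal) (hVp : IsPGroup p V) => hsp.stable hp V hVp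
  by_cases hJ : (thompsonSubgroupOf p (P : Subgroup G)).Normal
  · have h1 := isStableEmbedding_subtype P hsp.cent hJ (fun V hV hVle => hstab V hV
      (P.isPGroup'.to_le (hVle.trans (map_subtype_le _))))
    have h2 := stableNormalClosure_map_normal _ h1
    rw [normalizer_eq_top_iff.mpr h2] at hW
    exact hsp.ne_top hW.symm
  · have hJP : normalizer (thompsonSubgroupOf p (P : Subgroup G) : Set G) = P := by
      have h1 : (P : Subgroup G) ≤ normalizer (thompsonSubgroupOf p (P : Subgroup G) : Set G) := by
        rw [← rel_thompson]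
        exact le_normalizer.trans (normalizer_le_normalizer_rel (isNat_thompson p) _)
      rcases hsp.max _ h1 with h2 | h2
      · exact h2
      · exact absurd (normalizer_eq_top_iff.mp h2) hJ
    set V := sInf (maxIn (fun A : Subgroup G => IsElementaryAbelian p A) (P : Subgroup G)) with hVdef
    have hV : V.Normal := sInf_maxIn_elem_normal hp hsp.cent (fun V hV hVp => hstab V hV hVp) P
    have hWV : (stableNormalClosure p ↥(P : Subgroup G)).map (P : Subgroup G).subtype ≤ V := by
      rw [hVdef, ← omegaCenterThompson_map_eq]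
      exact Subgroup.map_mono (stableNormalClosure_le_omega p _)
    have hall : normalizer (((stableNormalClosure p ↥(P : Subgroup G)).map
        (P : Subgroup G).subtype : Subgroup G) : Set G) = ⊤ := by
      rw [eq_top_iff]
      intro g _
      obtain ⟨n, hn, l, hl, rfl⟩ := exists_mul_of_omega_normal P hVdef hV g
      rw [hJP] at hn
      refine mul_mem ?_ ?_
      · rw [hW]; exact hn
      · exact centralizer_le_normalizer_of_le hWV hl
    rw [hall] at hW
    exact hsp.ne_top hW.symm

end Cfsg.Agent.ZJ
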